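import Cfsg.Agent.Lib.ON.Act
import Cfsg.Agent.Lib.Schur.Basic
/-! The triple cover of the O'Nan group. -/
set_option autoImplicit false
namespace H87.ON
open H54 hiding bnot bnot_eq_true In grp Enum
open H15.Mdl H87.Mx Cfsg.Spor
open scoped commutatorElement

theorem not_comm : ¬ ∀ g h : ON, g * h = h * g := fun h =>
  letN.ne snd (v := [2, 4]) (w := [4, 2]) (by decide +kernel) (by simpa [evW_cons] using h _ _)

theorem center_eq_bot : Subgroup.center ON = ⊥ := by
  have := simple
  refine (Subgroup.Normal.eq_bot_or_eq_top inferInstance).resolve_right fun e => not_comm fun g h => ?_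
  exact Subgroup.mem_center_iff.1 (e ▸ Subgroup.mem_top h) g

theorem perfect : commutator ON = ⊤ := by
  have := simple
  refine (Subgroup.Normal.eq_bot_or_eq_top inferInstance).resolve_left fun e => not_comm fun g h => ?_
  have : ⁅g, h⁆ ∈ commutator ON :=
    Subgroup.commutator_mem_commutator (Subgroup.mem_top g) (Subgroup.mem_top h)
  rw [e, Subgroup.mem_bot, commutatorElement_eq_one_iff_mul_comm] at this
  exact this

/-- the projection of the triple cover -/
noncomputable def proj : X3 →* ON := eQ.symm.toMonoidHom.comp (QuotientGroup.mk' _)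

theorem proj_surj : Function.Surjective proj := eQ.symm.surjective.comp (QuotientGroup.mk'_surjective _)

theorem proj_ker : proj.ker = Subgroup.zpowers sc := by
  ext g
  rw [MonoidHom.mem_ker, ← QuotientGroup.eq_one_iff]
  exact eQ.symm.map_eq_one_iff

theorem center_X3 : Subgroup.center X3 = Subgroup.zpowers sc := by
  refine le_antisymm (fun z hz => ?_) (Subgroup.zpowers_le.2 sc_mem_center)
  rw [← proj_ker, MonoidHom.mem_ker, ← Subgroup.mem_bot, ← center_eq_bot, Subgroup.mem_center_iff]
  intro g
  obtain ⟨u, rfl⟩ := proj_surj g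
  rw [← map_mul, ← map_mul, Subgroup.mem_center_iff.1 hz u]

theorem card_center_X3 : Nat.card (Subgroup.center X3) = 3 := by
  rw [center_X3, Nat.card_zpowers, orderOf_sc]

theorem finite_X3 : Finite X3 := by
  have := finite
  have : Finite proj.ker := Nat.finite_of_card_ne_zero (by
    rw [proj_ker, Nat.card_zpowers, orderOf_sc]; norm_num)
  exact proj.finite_iff_finite_ker_range.2 ⟨this, inferInstance⟩

theorem perfect_X3 : commutator X3 = ⊤ := by
  refine eq_top_of_map_mk (K := Subgroup.zpowers sc) (Subgroup.zpowers_le.2 sc_mem_commutator) ?_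
  have h : commutator Q = ⊤ := by
    have := congrArg (Subgroup.map eQ.toMonoidHom) perfect
    rwa [commutator, Subgroup.map_commutator, Subgroup.map_top_of_surjective _ eQ.surjective] at this
  rw [commutator, Subgroup.map_commutator,
    Subgroup.map_top_of_surjective _ (QuotientGroup.mk'_surjective _)]
  exact h

theorem det_eq_one_gen {n F : Type*} [Fintype n] [DecidableEq n] [CommRing F] {X : Subgroup (Matrix n n F)ˣ}
    (h : commutator X = ⊤) (g : X) : ((g : (Matrix n n F)ˣ) : Matrix n n F).det = 1 := by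
  let f : X →* F := Matrix.detMonoidHom.comp ((Units.coeHom (Matrix n n F)).comp X.subtype)
  have : commutator X ≤ f.toHomUnits.ker := Abelianization.commutator_subset_ker _
  have := this (h ▸ Subgroup.mem_top g)
  exact congrArg Units.val (MonoidHom.mem_ker.1 this)

theorem exists_toSL {n F : Type*} [Fintype n] [DecidableEq n] [CommRing F] {X : Subgroup (Matrix n n F)ˣ}
    (h : commutator X = ⊤) : ∃ Y : Subgroup (Matrix.SpecialLinearGroup n F), Nonempty (X ≃* Y) := by
  let f : X →* Matrix.SpecialLinearGroup n F :=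
    { toFun g := ⟨((g : (Matrix n n F)ˣ) : Matrix n n F), det_eq_one_gen h g⟩
      map_one' := rfl
      map_mul' _ _ := rfl }
  exact ⟨f.range, ⟨MonoidHom.ofInjective fun _ _ e => Subtype.ext (Units.ext (congrArg Subtype.val e))⟩⟩

theorem center_equiv_gen {X Y : Type*} [Group X] [Group Y] (e : X ≃* Y) :
    Nat.card (Subgroup.center Y) = Nat.card (Subgroup.center X) ∧
      Nonempty ((Y ⧸ Subgroup.center Y) ≃* (X ⧸ Subgroup.center X)) := by
  have h : (Subgroup.center X).map e.toMonoidHom = Subgroup.center Y := by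
    ext y
    obtain ⟨g, rfl⟩ := e.surjective y
    rw [Subgroup.mem_map_equiv, MulEquiv.symm_apply_apply, Subgroup.mem_center_iff, Subgroup.mem_center_iff]
    refine ⟨fun h y => ?_, fun h u => e.injective (by rw [map_mul, map_mul, h])⟩
    obtain ⟨u, rfl⟩ := e.surjective y
    rw [← map_mul, ← map_mul, h]
  exact ⟨by rw [← h, Subgroup.card_map_of_injective e.injective], ⟨(QuotientGroup.congr _ _ e h).symm⟩⟩

theorem cover_gen {X Y Z : Type*} [Group X] [Group Y] [Group Z] (f : X →* Z) (hf : Function.Surjective f)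
    (h : Subgroup.center X = f.ker) (e : X ≃* Y) :
    Nat.card (Subgroup.center Y) = Nat.card (Subgroup.center X) ∧
      Nonempty ((Y ⧸ Subgroup.center Y) ≃* Z) := by
  obtain ⟨h', ⟨e1⟩⟩ := center_equiv_gen e
  exact ⟨h', ⟨e1.trans ((QuotientGroup.quotientMulEquivOfEq h).trans
    (QuotientGroup.quotientKerEquivOfSurjective f hf))⟩⟩

theorem cover_of_equiv {Y : Type*} [Group Y] (e : X3 ≃* Y) :
    Nat.card (Subgroup.center Y) = 3 ∧ Nonempty ((Y ⧸ Subgroup.center Y) ≃* ON) := by
  obtain ⟨h, h'⟩ := cover_gen proj proj_surj (center_X3.trans proj_ker.symm) e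
  exact ⟨h.trans card_center_X3, h'⟩

theorem isON_of_equiv {Y : Type*} [Group Y] (e : Y ≃* ON) : Cfsg.IsON Y :=
  haveI := simple
  ⟨e.isSimpleGroup, (Nat.card_congr e.toEquiv).trans card⟩

end H87.ON
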