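import Mathlib
import Cfsg.Agent.Lib.Invol.Dihedral
import Cfsg.Agent.Lib.ON.Out
import Cfsg.Agent.Lib.ON.RecC

/-! Generated by tools/on/rank.py: the subgroups L3(7):2 of the O'Nan group and their suborbits. -/

set_option autoImplicit false
set_option maxRecDepth 100000

namespace H87.ONK
open H54 hiding bnot bnot_eq_true In grp Enum Good
open H87.Mx H87.Tb H87.ON H87.ONR H60.ONOut MulAction Cfsg.Spor Subgroup

attribute [-instance] H87.ON.normal_sc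
attribute [local instance] H87.ON.finite

theorem orb_map {G G' : Type*} [Group G] [Group G'] (φ : G ≃* G') (H : Subgroup G) (q : G ⧸ H) :
    ∃ q' : G' ⧸ H.map φ.toMonoidHom, (orbit (H.map φ.toMonoidHom) q').ncard = (orbit H q).ncard := by
  have hm : ∀ a b : G, (φ a)⁻¹ * φ b ∈ H.map φ.toMonoidHom ↔ a⁻¹ * b ∈ H := fun a b => by
    rw [← map_inv, ← map_mul]; exact mem_map_iff_mem φ.injective
  let f : G ⧸ H → G' ⧸ H.map φ.toMonoidHom := Quotient.map' φ fun a b h =>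
    QuotientGroup.leftRel_apply.2 ((hm a b).2 (QuotientGroup.leftRel_apply.1 h))
  have hf : Function.Injective f := fun a b => Quotient.inductionOn₂' a b fun a b e =>
    QuotientGroup.eq.2 ((hm a b).1 (QuotientGroup.eq.1 e))
  obtain ⟨g, rfl⟩ := QuotientGroup.mk_surjective q
  refine ⟨f g, (congrArg _ ?_).trans (Set.ncard_image_of_injective _ hf)⟩
  ext y
  constructor
  · rintro ⟨⟨_, h, hh, rfl⟩, rfl⟩
    exact ⟨_, ⟨⟨h, hh⟩, rfl⟩, congrArg QuotientGroup.mk (map_mul φ h g)⟩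
  · rintro ⟨_, ⟨h, rfl⟩, rfl⟩
    exact ⟨⟨φ h, h, h.2, rfl⟩, (congrArg QuotientGroup.mk (map_mul φ (h : G) g)).symm⟩

/-- index and subdegrees -/
def Rk {G : Type*} [Group G] (H : Subgroup G) : Prop :=
  H.index = 122760 ∧ ∃ q₁ q₂ q₃ q₄ : G ⧸ H, (orbit H q₁).ncard = 6384 ∧ (orbit H q₂).ncard = 5586 ∧
    (orbit H q₃).ncard = 58653 ∧ (orbit H q₄).ncard = 52136

theorem Rk.map {G G' : Type*} [Group G] [Group G'] {H : Subgroup G} (h : Rk H) (φ : G ≃* G') :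
    Rk (H.map φ.toMonoidHom) := by
  obtain ⟨h0, q1, q2, q3, q4, h1, h2, h3, h4⟩ := h
  obtain ⟨r1, e1⟩ := orb_map φ H q1
  obtain ⟨r2, e2⟩ := orb_map φ H q2
  obtain ⟨r3, e3⟩ := orb_map φ H q3
  obtain ⟨r4, e4⟩ := orb_map φ H q4
  exact ⟨(index_map_equiv H φ).trans h0, r1, r2, r3, r4, e1.trans h1, e2.trans h2, e3.trans h3, e4.trans h4⟩

/-! ### the orbits of `H` -/

/-- a word in `a, …, f` -/
noncomputable def hl (w : List ℕ) : Bool := allL (fun l => band (Nat.ble 2 l) (Nat.ble l 13)) w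

theorem hl_spec {w : List ℕ} (c : hl w = true) : evW x w ∈ H ∧ ∀ l ∈ w, l < 2 * 7 := by
  simp only [hl, allL_iff, band_eq_true, Nat.ble_eq] at c
  refine ⟨evW_mem fun l h => ?_, fun l h => by have := c l h; omega⟩
  have := mem_wgen x (E := E7) (w := [2 * (l / 2)]) (by
    have := c l h
    obtain ⟨k, e, h1, h2⟩ : ∃ k, l / 2 = k ∧ 1 ≤ k ∧ k ≤ 6 := ⟨_, rfl, by omega, by omega⟩
    rw [e]; interval_cases k <;> decide)
  rwa [evW_cons, evW_nil, mul_one, xl_even] at this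

def W12 : List (List ℕ) := [[2],
  [4],
  [6],
  [8],
  [10],
  [12],
  [2, 4],
  [2, 6],
  [2, 8],
  [2, 10],
  [2, 12],
  [4, 2],
  [4, 6],
  [4, 8],
  [4, 10],
  [4, 12],
  [6, 2],
  [6, 4],
  [6, 8],
  [6, 10],
  [6, 12],
  [8, 2],
  [8, 4],
  [8, 6],
  [8, 10],
  [8, 12],
  [10, 2],
  [10, 4],
  [10, 6],
  [10, 8],
  [10, 12],
  [12, 2],
  [12, 4],
  [12, 6],
  [12, 8],
  [12, 10]]
noncomputable def exW : GT (List ℕ) :=
 (.node 20820 (.node 9158 (.node 2768 (.node 1135 (.node 438 (.node 152 (.node 36 (.node 16 (.node 12 (.leaf [10, 8, 6, 8, 4, 6, 8, 10, 12, 8, 10, 6, 8, 4, 6, 8, 10, 4, 6, 8, 4, 6, 8, 10, 12, 8, 2, 4, 6, 8, 10, 4, 6, 8, 4, 6, 2, 4])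
 (.leaf [4, 6, 8, 10, 6, 8, 4, 6, 8, 10, 2, 4, 6, 8, 6, 8, 10, 12, 8, 2, 4, 6, 8, 10, 4, 6, 8, 4, 6, 8, 10, 12, 8, 2, 4, 6, 8, 10]))
 (.node 18 (.leaf [6, 8, 10, 6, 8, 4, 6, 8, 2, 4, 6, 8, 10, 12, 6, 8, 10, 6, 8, 4, 6, 8, 10, 6, 8, 6, 8, 4, 6, 8, 10, 12, 2, 4, 6, 8, 10, 6, 8, 4, 6, 8])
 (.node 27 (.leaf [4, 6, 2])
 (.leaf [8, 10, 6, 8, 4, 6, 8, 10, 6, 8, 4, 6, 8, 10, 6, 8, 4, 6, 8, 10, 6, 8, 2, 4, 6, 8]))))
 (.node 47 (.node 45 (.leaf [12, 8, 6, 8, 10, 4, 6, 8, 4, 6, 8, 4, 6, 8, 10, 8, 6, 8, 4, 6, 8, 10, 8, 6, 2, 4])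
 (.leaf [10, 8, 6, 8, 10, 4, 6, 8, 4, 6, 8, 10, 8, 4, 6, 8, 2, 4, 6, 8, 6, 4]))
 (.node 80 (.leaf [4, 6, 8, 2])
 (.node 84 (.leaf [4, 6, 2])
 (.leaf [4, 6, 8, 4, 2])))))
 (.node 304 (.node 210 (.node 202 (.leaf [8, 4, 6, 8, 10, 6, 8, 6, 4])
 (.leaf [10, 12, 8]))
 (.node 244 (.leaf [4, 6, 2])
 (.node 290 (.leaf [8, 10, 12, 8, 6])
 (.leaf [10, 8, 4, 6, 8, 10, 4, 6, 2]))))
 (.node 339 (.node 331 (.leaf [12, 6, 8, 10, 4, 6, 8, 6, 8, 2])
 (.leaf [6, 4, 2]))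
 (.node 413 (.leaf [6, 8, 10, 6, 8, 4, 6, 8, 10, 12, 4, 6, 8, 6])
 (.node 424 (.leaf [8, 10, 12])
 (.leaf [6, 8, 4]))))))
 (.node 670 (.node 579 (.node 491 (.node 455 (.leaf [6, 8, 6, 8, 4])
 (.leaf [8, 10, 12]))
 (.node 513 (.leaf [4, 6, 2])
 (.node 544 (.leaf [10, 8, 6, 2, 4])
 (.leaf [10, 12, 8, 6]))))
 (.node 590 (.node 583 (.leaf [6, 4, 2])
 (.leaf [8, 4, 6, 8, 10, 12, 8, 10, 2, 4, 6, 8, 2]))
 (.node 601 (.leaf [2, 4, 6, 8, 2, 4, 6, 8, 2])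
 (.node 635 (.leaf [6, 4, 2])
 (.leaf [6, 8, 6])))))
 (.node 978 (.node 742 (.node 702 (.leaf [8, 6, 8, 4, 6, 8, 10, 12, 6, 8, 4])
 (.leaf [6, 4, 2]))
 (.node 852 (.leaf [6, 4, 2])
 (.node 895 (.leaf [6, 8, 4])
 (.leaf [8, 10, 4, 6, 8, 2, 4, 6, 8, 10, 12, 4]))))
 (.node 1046 (.node 1029 (.leaf [10, 12, 8])
 (.leaf [8, 10, 12, 6, 8, 6, 2]))
 (.node 1065 (.leaf [6, 8, 4, 6, 8, 10, 12, 6, 8])
 (.node 1115 (.leaf [8, 10, 12, 6, 8, 10, 4])
 (.leaf [2, 4, 2])))))))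
 (.node 2136 (.node 1475 (.node 1263 (.node 1168 (.node 1146 (.leaf [4, 6, 2, 4])
 (.leaf [6, 8, 2, 4, 6, 8, 4, 2]))
 (.node 1181 (.leaf [6, 4, 2])
 (.node 1233 (.leaf [8, 4, 6, 8, 4, 6, 4, 2])
 (.leaf [6, 4, 2]))))
 (.node 1320 (.node 1298 (.leaf [6, 8, 6])
 (.leaf [8, 10, 6, 8, 6]))
 (.node 1367 (.leaf [10, 12, 8])
 (.node 1371 (.leaf [6, 8, 6])
 (.leaf [2, 4, 6])))))
 (.node 1857 (.node 1612 (.node 1481 (.leaf [4, 6, 8, 10, 12, 6, 8, 10, 4, 6, 2])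
 (.leaf [6, 4, 2]))
 (.node 1686 (.leaf [6, 8, 10, 4, 6, 8, 6, 8, 10, 4, 6, 8])
 (.node 1837 (.leaf [10, 12, 6, 4])
 (.leaf [6, 4, 2]))))
 (.node 2004 (.node 1968 (.leaf [2, 4, 6])
 (.leaf [4, 6, 4, 2]))
 (.node 2035 (.leaf [4, 6, 8, 10, 12, 8, 6])
 (.node 2094 (.leaf [4, 6, 8, 10, 4, 6, 8, 4])
 (.leaf [6, 4, 2]))))))
 (.node 2427 (.node 2369 (.node 2188 (.node 2150 (.leaf [6, 4, 2])
 (.leaf [6, 8, 10, 6, 8, 4, 6, 8, 10, 12, 2, 4]))
 (.node 2297 (.leaf [6, 8, 4, 6, 8, 10, 2])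
 (.node 2332 (.leaf [8, 2, 4, 6, 8, 2])
 (.leaf [4, 6, 8, 4, 6, 8, 2]))))
 (.node 2383 (.node 2374 (.leaf [6, 2, 4, 2])
 (.leaf [6, 4, 2]))
 (.node 2404 (.leaf [8, 4, 6, 8, 10, 12, 8, 2])
 (.node 2413 (.leaf [4, 6, 2])
 (.leaf [8, 10, 12])))))
 (.node 2635 (.node 2602 (.node 2505 (.leaf [8, 4, 6, 8, 4, 2])
 (.leaf [8, 4, 2]))
 (.node 2605 (.leaf [6, 4, 2])
 (.node 2631 (.leaf [8, 10, 12, 6])
 (.leaf [8, 10, 6, 8, 4, 6]))))
 (.node 2708 (.node 2679 (.leaf [10, 8, 2])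
 (.leaf [10, 12, 8, 6, 2]))
 (.node 2751 (.leaf [10, 12, 6, 8, 6, 4])
 (.node 2761 (.leaf [8, 10, 12, 2])
 (.leaf [8, 10, 12]))))))))
 (.node 5776 (.node 4398 (.node 3315 (.node 3000 (.node 2840 (.node 2776 (.leaf [10, 12, 6, 8, 4, 6, 4, 2])
 (.leaf [10, 8, 6]))
 (.node 2891 (.leaf [10, 6, 8, 4, 6, 4, 2])
 (.node 2942 (.leaf [8, 4, 6, 8, 10, 2, 4, 6])
 (.leaf [12, 8, 2]))))
 (.node 3110 (.node 3052 (.leaf [8, 10, 8, 2])
 (.leaf [10, 8, 2]))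
 (.node 3182 (.leaf [4, 6, 8, 10, 6, 8, 4, 6])
 (.node 3286 (.leaf [2, 4, 6])
 (.leaf [12, 8, 2])))))
 (.node 3712 (.node 3409 (.node 3330 (.leaf [8, 10, 12])
 (.leaf [6, 4, 2]))
 (.node 3516 (.leaf [2, 4, 6])
 (.node 3559 (.leaf [10, 8, 2])
 (.leaf [10, 8, 2]))))
 (.node 4291 (.node 3855 (.leaf [2, 4, 6])
 (.leaf [10, 8, 2]))
 (.node 4339 (.leaf [10, 8, 2])
 (.node 4373 (.leaf [10, 6, 8, 6, 8, 2, 4, 2])
 (.leaf [8, 6, 8, 4, 6, 4, 2]))))))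
 (.node 5051 (.node 4834 (.node 4732 (.node 4584 (.leaf [8, 10, 12, 2, 4, 6, 2, 4])
 (.leaf [10, 8, 4, 6]))
 (.node 4814 (.leaf [10, 12, 8, 6])
 (.node 4824 (.leaf [10, 12, 8, 6])
 (.leaf [6, 8, 10, 4, 6, 8, 2]))))
 (.node 4977 (.node 4843 (.leaf [10, 12, 8, 6, 8, 10])
 (.leaf [8, 10, 6, 4]))
 (.node 4989 (.leaf [6, 8, 10, 6])
 (.node 5017 (.leaf [6, 2, 4, 2])
 (.leaf [4, 6, 8, 6, 2, 4])))))
 (.node 5343 (.node 5213 (.node 5164 (.leaf [6, 4, 2])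
 (.leaf [6, 8, 6, 2]))
 (.node 5217 (.leaf [6, 8, 10, 6])
 (.node 5320 (.leaf [8, 10, 12])
 (.leaf [8, 10, 4, 6, 4, 2]))))
 (.node 5409 (.node 5401 (.leaf [10, 8, 6, 8, 10, 4])
 (.leaf [8, 10, 12, 2]))
 (.node 5634 (.leaf [6, 4, 2])
 (.node 5682 (.leaf [6, 8, 2])
 (.leaf [10, 8, 2])))))))
 (.node 7503 (.node 6610 (.node 6087 (.node 5924 (.node 5832 (.leaf [8, 6, 8, 10, 8, 4, 2])
 (.leaf [10, 12, 6, 4]))
 (.node 5971 (.leaf [8, 10, 12])
 (.node 5990 (.leaf [8, 6, 4])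
 (.leaf [6, 4, 2]))))
 (.node 6312 (.node 6126 (.leaf [8, 10, 12, 8])
 (.leaf [2, 4, 6]))
 (.node 6420 (.leaf [2, 4, 6])
 (.node 6513 (.leaf [2, 4, 6])
 (.leaf [2, 4, 6])))))
 (.node 6991 (.node 6939 (.node 6871 (.leaf [6, 8, 6, 2, 4])
 (.leaf [6, 8, 6, 2]))
 (.node 6950 (.leaf [6, 8, 2])
 (.node 6978 (.leaf [6, 8, 10, 6, 4, 2])
 (.leaf [8, 6, 8, 6]))))
 (.node 7206 (.node 7191 (.leaf [6, 4, 2])
 (.leaf [6, 4, 2]))
 (.node 7403 (.leaf [12, 6, 8, 6, 4, 2])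
 (.node 7450 (.leaf [2, 4, 6])
 (.leaf [2, 4, 6]))))))
 (.node 8092 (.node 8004 (.node 7573 (.node 7566 (.leaf [8, 10, 4])
 (.leaf [10, 12, 8, 10]))
 (.node 7626 (.leaf [6, 8, 6, 2])
 (.node 7854 (.leaf [8, 10, 4])
 (.leaf [2, 4, 6]))))
 (.node 8042 (.node 8020 (.leaf [2, 4, 2])
 (.leaf [2, 4, 2]))
 (.node 8059 (.leaf [10, 8, 6, 8, 4])
 (.node 8082 (.leaf [4, 6, 8])
 (.leaf [6, 8, 10, 4, 6, 8, 4])))))
 (.node 8826 (.node 8194 (.node 8140 (.leaf [4, 6, 2])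
 (.leaf [6, 8, 6, 4, 2]))
 (.node 8444 (.leaf [6, 8, 6, 4])
 (.node 8766 (.leaf [8, 6, 4, 2])
 (.leaf [8, 4, 6, 8, 4, 6, 4]))))
 (.node 9037 (.node 8898 (.leaf [10, 8, 4, 6, 4])
 (.leaf [6, 8, 6]))
 (.node 9041 (.leaf [12, 8, 6])
 (.node 9045 (.leaf [6, 8, 6])
 (.leaf [10, 4, 6])))))))))
 (.node 14349 (.node 11507 (.node 10240 (.node 10011 (.node 9670 (.node 9267 (.node 9258 (.leaf [6, 8, 10, 4, 6, 4, 2])
 (.leaf [8, 10, 2]))
 (.node 9459 (.leaf [4, 6, 8, 6, 8, 10, 4])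
 (.node 9613 (.leaf [12, 8, 10, 4, 6, 2])
 (.leaf [6, 8, 4]))))
 (.node 9874 (.node 9863 (.leaf [2, 4, 6])
 (.leaf [8, 4, 6]))
 (.node 9916 (.leaf [8, 10, 2])
 (.node 9975 (.leaf [6, 8, 10, 12, 8])
 (.leaf [8, 6, 8, 10, 4, 6, 4, 2])))))
 (.node 10067 (.node 10035 (.node 10020 (.leaf [10, 12, 8, 10, 6, 8, 4])
 (.leaf [10, 4, 6, 8, 4, 6, 4]))
 (.node 10040 (.leaf [6, 8, 10, 4, 6, 8])
 (.node 10063 (.leaf [6, 8, 2, 4, 6, 2, 4])
 (.leaf [4, 6, 8, 10, 12, 4, 2]))))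
 (.node 10115 (.node 10084 (.leaf [6, 8, 10])
 (.leaf [8, 10, 12, 2]))
 (.node 10123 (.leaf [8, 4, 6, 4, 2])
 (.node 10170 (.leaf [6, 8, 10, 12, 8, 4, 2])
 (.leaf [8, 10, 12, 6, 8, 6]))))))
 (.node 10656 (.node 10431 (.node 10279 (.node 10252 (.leaf [6, 8, 6, 4])
 (.leaf [10, 12, 2]))
 (.node 10308 (.leaf [12, 8, 2])
 (.node 10425 (.leaf [6, 8, 6, 2])
 (.leaf [6, 8, 10, 6, 8, 6, 4]))))
 (.node 10450 (.node 10446 (.leaf [8, 2, 4, 6])
 (.leaf [10, 4, 2]))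
 (.node 10467 (.leaf [6, 8, 10])
 (.node 10593 (.leaf [4, 6, 8, 10, 12, 4])
 (.leaf [6, 8, 6])))))
 (.node 11081 (.node 10766 (.node 10719 (.leaf [8, 4, 6, 8])
 (.leaf [10, 12, 8]))
 (.node 10968 (.leaf [10, 6, 8])
 (.node 10977 (.leaf [8, 4, 2])
 (.leaf [8, 6, 2]))))
 (.node 11314 (.node 11200 (.leaf [2, 4, 6, 8, 4, 2])
 (.leaf [6, 4, 2]))
 (.node 11408 (.leaf [6, 8, 6, 2, 4, 2])
 (.node 11435 (.leaf [2, 4, 2])
 (.leaf [10, 12, 6])))))))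
 (.node 13052 (.node 12246 (.node 11884 (.node 11674 (.node 11660 (.leaf [6, 8, 10, 12, 2])
 (.leaf [8, 4, 6, 8, 2]))
 (.node 11693 (.leaf [8, 10, 12, 6, 2, 4])
 (.node 11881 (.leaf [4, 6, 8, 10, 2, 4, 2])
 (.leaf [10, 6, 8, 6, 8]))))
 (.node 11969 (.node 11930 (.leaf [8, 10, 12])
 (.leaf [4, 6, 2]))
 (.node 12165 (.leaf [10, 4, 6, 8, 2])
 (.node 12228 (.leaf [4, 6, 2])
 (.leaf [6, 8, 2])))))
 (.node 12652 (.node 12277 (.node 12268 (.leaf [10, 6, 8, 4, 2])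
 (.leaf [6, 2, 4]))
 (.node 12551 (.leaf [6, 8, 10, 6])
 (.node 12556 (.leaf [8, 4, 6, 8, 10, 2])
 (.leaf [10, 12, 4, 6, 2]))))
 (.node 12958 (.node 12862 (.leaf [8, 6, 8, 6])
 (.leaf [2, 4, 6, 2, 4]))
 (.node 13015 (.leaf [8, 4, 2])
 (.node 13034 (.leaf [6, 2, 4])
 (.leaf [2, 4, 6]))))))
 (.node 14053 (.node 13685 (.node 13262 (.node 13182 (.leaf [6, 8, 2])
 (.leaf [10, 8, 2]))
 (.node 13438 (.leaf [10, 8, 2])
 (.node 13525 (.leaf [10, 8, 4])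
 (.leaf [6, 4, 2]))))
 (.node 13888 (.node 13771 (.leaf [8, 10, 12, 8, 6])
 (.leaf [10, 4, 6, 2]))
 (.node 13996 (.leaf [8, 2, 4, 6, 4])
 (.node 14049 (.leaf [4, 6, 8, 2])
 (.leaf [10, 6, 4, 2])))))
 (.node 14266 (.node 14188 (.node 14063 (.leaf [6, 8, 2])
 (.leaf [4, 6, 4, 2]))
 (.node 14228 (.leaf [4, 6, 8, 10, 12, 2])
 (.node 14232 (.leaf [6, 8, 10, 4, 6, 8, 2])
 (.leaf [10, 12, 4, 6, 8, 10, 2]))))
 (.node 14294 (.node 14272 (.leaf [10, 6, 8, 4, 6])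
 (.leaf [10, 12, 6, 8, 4, 2]))
 (.node 14300 (.leaf [10, 12, 6, 2, 4, 2])
 (.node 14323 (.leaf [10, 6, 2])
 (.leaf [4, 6, 2, 4]))))))))
 (.node 17401 (.node 15751 (.node 15183 (.node 14800 (.node 14365 (.node 14353 (.leaf [2, 4, 2])
 (.leaf [10, 8, 2]))
 (.node 14370 (.leaf [6, 2, 4])
 (.node 14524 (.leaf [4, 6, 8, 2, 4])
 (.leaf [8, 4, 6, 8, 6, 4]))))
 (.node 15053 (.node 14916 (.leaf [2, 4, 6])
 (.leaf [8, 10, 6, 8, 6, 8]))
 (.node 15061 (.leaf [6, 8, 4, 2])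
 (.node 15069 (.leaf [8, 4, 6, 8, 2, 4])
 (.leaf [8, 4, 2])))))
 (.node 15465 (.node 15420 (.node 15386 (.leaf [10, 12, 8, 10])
 (.leaf [8, 4, 2]))
 (.node 15442 (.leaf [4, 6, 8, 4, 6])
 (.node 15462 (.leaf [8, 10, 8, 4, 6])
 (.leaf [2, 4, 2]))))
 (.node 15662 (.node 15601 (.leaf [6, 8, 10, 12, 8, 6])
 (.leaf [8, 4, 6, 8, 10, 2]))
 (.node 15738 (.leaf [2, 4, 2])
 (.node 15743 (.leaf [8, 10, 12, 8, 4])
 (.leaf [10, 2, 4, 6, 4, 2]))))))
 (.node 16450 (.node 16250 (.node 15981 (.node 15758 (.leaf [8, 10, 4, 2])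
 (.leaf [10, 12, 2]))
 (.node 15998 (.leaf [6, 2, 4, 2])
 (.node 16101 (.leaf [10, 12, 2])
 (.leaf [6, 4, 2]))))
 (.node 16334 (.node 16271 (.leaf [6, 4, 2])
 (.leaf [10, 8, 2]))
 (.node 16346 (.leaf [6, 8, 2, 4])
 (.node 16415 (.leaf [8, 4, 6, 4])
 (.leaf [10, 6, 2])))))
 (.node 17130 (.node 16941 (.node 16646 (.leaf [2, 4, 6])
 (.leaf [4, 6, 4]))
 (.node 16947 (.leaf [10, 8, 2])
 (.node 17038 (.leaf [10, 12, 8])
 (.leaf [6, 4, 2]))))
 (.node 17270 (.node 17247 (.leaf [6, 8, 4])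
 (.leaf [4, 6, 4]))
 (.node 17288 (.leaf [8, 4, 2])
 (.node 17336 (.leaf [10, 8, 4])
 (.leaf [2, 4, 6])))))))
 (.node 19155 (.node 18453 (.node 17927 (.node 17756 (.node 17686 (.leaf [6, 2, 4, 2])
 (.leaf [4, 6, 4]))
 (.node 17778 (.leaf [2, 4, 6])
 (.node 17801 (.leaf [4, 6, 8])
 (.leaf [10, 8, 2]))))
 (.node 18037 (.node 18007 (.leaf [10, 6, 8, 6, 2, 4])
 (.leaf [10, 12, 8, 10]))
 (.node 18043 (.leaf [8, 10, 4, 6])
 (.node 18181 (.leaf [10, 8, 6, 8, 4])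
 (.leaf [6, 8, 10, 12, 4])))))
 (.node 18756 (.node 18684 (.node 18605 (.leaf [10, 8, 2])
 (.leaf [2, 4, 6]))
 (.node 18693 (.leaf [4, 6, 4])
 (.node 18724 (.leaf [6, 8, 10, 8])
 (.leaf [6, 8, 2, 4]))))
 (.node 18950 (.node 18847 (.leaf [10, 8, 4, 6])
 (.leaf [6, 8, 6]))
 (.node 18967 (.leaf [8, 10, 4, 6])
 (.node 19065 (.leaf [8, 10, 6])
 (.leaf [2, 4, 6]))))))
 (.node 20173 (.node 20071 (.node 19811 (.node 19641 (.leaf [10, 8, 6, 4, 2])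
 (.leaf [6, 2, 4]))
 (.node 20019 (.leaf [4, 6, 2, 4])
 (.node 20065 (.leaf [10, 8, 6])
 (.leaf [4, 6, 2]))))
 (.node 20122 (.node 20097 (.leaf [4, 6, 2, 4])
 (.leaf [8, 4, 6, 8, 2]))
 (.node 20139 (.leaf [10, 12, 8, 6])
 (.node 20151 (.leaf [6, 8, 4, 2])
 (.leaf [8, 4, 6, 8])))))
 (.node 20369 (.node 20226 (.node 20189 (.leaf [2, 4, 6, 8, 2])
 (.leaf [2, 4, 2]))
 (.node 20229 (.leaf [8, 4, 2])
 (.node 20358 (.leaf [10, 8, 2])
 (.leaf [10, 8, 2]))))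
 (.node 20617 (.node 20537 (.leaf [2, 4, 6])
 (.node 20563 (.leaf [10, 12, 8])
 (.leaf [4, 6, 8])))
 (.node 20742 (.leaf [10, 8, 6, 8])
 (.node 20811 (.leaf [10, 8, 2])
 (.leaf [10, 8, 2]))))))))))
 (.node 36791 (.node 30012 (.node 25666 (.node 23412 (.node 21548 (.node 21375 (.node 21065 (.node 20858 (.leaf [10, 2, 4, 2])
 (.leaf [8, 4, 6, 8]))
 (.node 21191 (.leaf [8, 6, 4, 2])
 (.node 21254 (.leaf [6, 4, 2])
 (.leaf [10, 6, 8, 4]))))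
 (.node 21416 (.node 21389 (.leaf [8, 2, 4, 2])
 (.leaf [4, 6, 2]))
 (.node 21484 (.leaf [6, 2, 4])
 (.node 21519 (.leaf [8, 10, 12])
 (.leaf [8, 4, 6, 2])))))
 (.node 22520 (.node 22001 (.node 21990 (.leaf [2, 4, 6])
 (.leaf [10, 4, 2]))
 (.node 22089 (.leaf [8, 10, 12, 4])
 (.node 22378 (.leaf [6, 8, 2, 4])
 (.leaf [10, 12, 8]))))
 (.node 22910 (.node 22855 (.leaf [8, 6, 4])
 (.leaf [6, 2, 4, 2]))
 (.node 22923 (.leaf [8, 10, 8])
 (.node 23320 (.leaf [2, 4, 6])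
 (.leaf [12, 10, 2]))))))
 (.node 24656 (.node 23857 (.node 23611 (.node 23504 (.leaf [10, 8, 2])
 (.leaf [4, 6, 4]))
 (.node 23632 (.leaf [10, 4, 2])
 (.node 23699 (.leaf [8, 10, 4, 2])
 (.leaf [6, 2, 4]))))
 (.node 24481 (.node 24365 (.leaf [10, 12, 8, 4])
 (.leaf [8, 4, 2]))
 (.node 24545 (.leaf [10, 12, 4])
 (.node 24595 (.leaf [6, 2, 4])
 (.leaf [8, 4, 2])))))
 (.node 25005 (.node 24756 (.node 24715 (.leaf [8, 10, 2])
 (.leaf [6, 2, 4]))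
 (.node 24768 (.leaf [10, 6, 4])
 (.node 24993 (.leaf [8, 6, 2])
 (.leaf [8, 10, 8, 2]))))
 (.node 25087 (.node 25051 (.leaf [10, 6, 8])
 (.leaf [4, 6, 2]))
 (.node 25118 (.leaf [4, 6, 2])
 (.node 25180 (.leaf [4, 6, 8])
 (.leaf [6, 4, 2])))))))
 (.node 27473 (.node 26705 (.node 26121 (.node 25688 (.node 25670 (.leaf [12, 6, 2])
 (.leaf [10, 8, 6, 8]))
 (.node 25762 (.leaf [6, 4, 2])
 (.node 26029 (.leaf [8, 10, 2, 4])
 (.leaf [8, 10, 6]))))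
 (.node 26526 (.node 26430 (.leaf [10, 8, 4, 2])
 (.leaf [10, 4, 2]))
 (.node 26536 (.leaf [4, 6, 8, 4])
 (.node 26603 (.leaf [8, 6, 2])
 (.leaf [10, 2, 4, 6])))))
 (.node 27009 (.node 26857 (.node 26804 (.leaf [10, 12, 2])
 (.leaf [10, 12, 2]))
 (.node 26986 (.leaf [10, 12, 2])
 (.node 26992 (.leaf [10, 6, 2, 4, 2])
 (.leaf [10, 12, 8, 2, 4]))))
 (.node 27181 (.node 27074 (.leaf [4, 6, 2, 4])
 (.leaf [4, 6, 8, 10, 6]))
 (.node 27371 (.leaf [2, 4, 2])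
 (.node 27390 (.leaf [6, 4, 2])
 (.leaf [4, 6, 4]))))))
 (.node 28594 (.node 28118 (.node 27577 (.node 27496 (.leaf [10, 12, 6])
 (.leaf [10, 8, 2]))
 (.node 27840 (.leaf [10, 8, 2])
 (.node 27941 (.leaf [6, 4, 2])
 (.leaf [6, 2, 4, 2]))))
 (.node 28364 (.node 28303 (.leaf [8, 6, 2])
 (.leaf [6, 4, 2]))
 (.node 28378 (.leaf [6, 4, 2])
 (.node 28585 (.leaf [4, 6, 2])
 (.leaf [10, 8, 2])))))
 (.node 28924 (.node 28894 (.node 28842 (.leaf [10, 8, 6])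
 (.leaf [10, 6, 4, 2]))
 (.node 28907 (.leaf [10, 12, 2])
 (.node 28916 (.leaf [6, 4, 2])
 (.leaf [12, 8, 2, 4]))))
 (.node 29413 (.node 29022 (.leaf [2, 4, 2])
 (.leaf [10, 8, 2]))
 (.node 29596 (.leaf [4, 6, 2])
 (.node 29740 (.leaf [6, 4, 2])
 (.leaf [4, 6, 8, 4]))))))))
 (.node 32715 (.node 31702 (.node 30793 (.node 30700 (.node 30128 (.node 30085 (.leaf [8, 10, 6, 8, 2, 4])
 (.leaf [6, 2, 4]))
 (.node 30264 (.leaf [2, 4, 2])
 (.node 30648 (.leaf [10, 6, 4])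
 (.leaf [10, 8, 6]))))
 (.node 30747 (.node 30706 (.leaf [6, 4, 2])
 (.leaf [10, 12, 4]))
 (.node 30763 (.leaf [8, 10, 6, 4])
 (.node 30774 (.leaf [8, 2, 4, 6, 4])
 (.leaf [6, 8, 2])))))
 (.node 31265 (.node 31056 (.node 30921 (.leaf [2, 4, 6])
 (.leaf [8, 4, 2]))
 (.node 31137 (.leaf [10, 8, 2])
 (.node 31212 (.leaf [4, 6, 8, 6, 4])
 (.leaf [2, 4, 6, 2]))))
 (.node 31399 (.node 31316 (.leaf [6, 4, 2])
 (.leaf [10, 8, 4]))
 (.node 31624 (.leaf [8, 6, 4])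
 (.node 31671 (.leaf [4, 6, 4])
 (.leaf [4, 6, 8, 2]))))))
 (.node 32356 (.node 32107 (.node 31760 (.node 31731 (.leaf [10, 12, 2])
 (.leaf [4, 6, 2]))
 (.node 31769 (.leaf [10, 12, 2])
 (.node 31921 (.leaf [2, 4, 6])
 (.leaf [6, 2, 4]))))
 (.node 32283 (.node 32245 (.leaf [2, 4, 6])
 (.leaf [6, 8, 10]))
 (.node 32314 (.leaf [6, 4, 2])
 (.node 32329 (.leaf [2, 4, 6])
 (.leaf [6, 4, 2])))))
 (.node 32452 (.node 32385 (.node 32376 (.leaf [10, 12, 2])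
 (.leaf [10, 8, 2, 4]))
 (.node 32425 (.leaf [12, 8, 6])
 (.node 32434 (.leaf [6, 4, 2])
 (.leaf [6, 8, 4, 6]))))
 (.node 32479 (.node 32468 (.leaf [10, 8, 2])
 (.leaf [10, 8, 2, 4]))
 (.node 32553 (.leaf [10, 6, 2])
 (.node 32607 (.leaf [4, 6, 2])
 (.leaf [6, 8, 4])))))))
 (.node 35101 (.node 33199 (.node 33097 (.node 32882 (.node 32876 (.leaf [8, 4, 6])
 (.leaf [10, 8, 2]))
 (.node 32997 (.leaf [6, 2, 4])
 (.node 33053 (.leaf [4, 6, 2])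
 (.leaf [4, 6, 2, 4]))))
 (.node 33157 (.node 33147 (.leaf [4, 6, 2])
 (.leaf [10, 8, 4]))
 (.node 33168 (.leaf [6, 8, 2])
 (.node 33187 (.leaf [4, 6, 2])
 (.leaf [6, 4, 2])))))
 (.node 34437 (.node 33648 (.node 33578 (.leaf [10, 8, 2])
 (.leaf [2, 4, 2]))
 (.node 33954 (.leaf [8, 4, 6])
 (.node 34397 (.leaf [4, 6, 4, 2])
 (.leaf [2, 4, 6]))))
 (.node 34879 (.node 34714 (.leaf [2, 4, 6])
 (.leaf [8, 4, 6]))
 (.node 34930 (.leaf [10, 12, 6])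
 (.node 35069 (.leaf [4, 6, 4])
 (.leaf [6, 2, 4]))))))
 (.node 35941 (.node 35518 (.node 35216 (.node 35140 (.leaf [10, 8, 2])
 (.leaf [4, 6, 2]))
 (.node 35282 (.leaf [10, 4, 6])
 (.node 35456 (.leaf [8, 10, 2])
 (.leaf [10, 6, 8]))))
 (.node 35701 (.node 35675 (.leaf [6, 2, 4])
 (.leaf [2, 4, 6]))
 (.node 35752 (.leaf [6, 4, 2])
 (.node 35844 (.leaf [8, 10, 2])
 (.leaf [6, 2, 4])))))
 (.node 36139 (.node 36014 (.node 35984 (.leaf [2, 4, 2])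
 (.leaf [6, 4, 2]))
 (.node 36070 (.leaf [6, 4, 2])
 (.node 36116 (.leaf [6, 4, 2])
 (.leaf [6, 2, 4, 2]))))
 (.node 36750 (.node 36588 (.leaf [6, 4, 2])
 (.node 36657 (.leaf [10, 12, 2])
 (.leaf [6, 8, 10, 6, 2])))
 (.node 36764 (.leaf [6, 4, 2])
 (.node 36773 (.leaf [8, 6, 8])
 (.leaf [8, 10, 6, 2])))))))))
 (.node 51523 (.node 40119 (.node 38553 (.node 37688 (.node 37382 (.node 37075 (.node 36800 (.leaf [10, 4, 2])
 (.leaf [8, 4, 2]))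
 (.node 37159 (.leaf [12, 4, 2])
 (.node 37243 (.leaf [4, 6, 4, 2])
 (.leaf [10, 12, 8]))))
 (.node 37577 (.node 37510 (.leaf [6, 4, 2])
 (.leaf [8, 4, 2]))
 (.node 37637 (.leaf [6, 8, 6])
 (.node 37679 (.leaf [4, 6, 2])
 (.leaf [10, 12, 2])))))
 (.node 38419 (.node 37730 (.node 37718 (.leaf [4, 6, 4])
 (.leaf [8, 10, 4, 2]))
 (.node 38196 (.leaf [8, 4, 2])
 (.node 38363 (.leaf [10, 8, 2])
 (.leaf [8, 10, 4]))))
 (.node 38493 (.node 38451 (.leaf [8, 6, 4])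
 (.leaf [6, 4, 2]))
 (.node 38524 (.leaf [6, 4, 2])
 (.node 38539 (.leaf [8, 6, 4])
 (.leaf [4, 6, 8]))))))
 (.node 39428 (.node 39231 (.node 38929 (.node 38698 (.leaf [8, 10, 6])
 (.leaf [6, 4, 2]))
 (.node 38949 (.leaf [8, 10, 2])
 (.node 39103 (.leaf [4, 6, 2, 4])
 (.leaf [8, 6, 4]))))
 (.node 39278 (.node 39249 (.leaf [2, 4, 6])
 (.leaf [10, 8, 4]))
 (.node 39362 (.leaf [8, 10, 8])
 (.node 39371 (.leaf [6, 4, 2])
 (.leaf [8, 4, 6])))))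
 (.node 39804 (.node 39465 (.node 39436 (.leaf [6, 4, 2])
 (.leaf [8, 4, 6]))
 (.node 39711 (.leaf [10, 8, 6, 2])
 (.node 39745 (.leaf [12, 4, 6, 4])
 (.leaf [10, 8, 2]))))
 (.node 40082 (.node 40058 (.leaf [6, 8, 10])
 (.leaf [8, 6, 4]))
 (.node 40095 (.leaf [10, 2, 4])
 (.node 40106 (.leaf [8, 4, 6])
 (.leaf [8, 6, 4, 2])))))))
 (.node 44240 (.node 40636 (.node 40419 (.node 40209 (.node 40157 (.leaf [10, 8, 2])
 (.leaf [8, 4, 2]))
 (.node 40256 (.leaf [10, 8, 2])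
 (.node 40371 (.leaf [8, 6, 4, 2])
 (.leaf [8, 10, 4]))))
 (.node 40540 (.node 40511 (.leaf [2, 4, 2])
 (.leaf [2, 4, 6]))
 (.node 40547 (.leaf [6, 2, 4])
 (.node 40559 (.leaf [6, 8, 2])
 (.leaf [6, 4, 2])))))
 (.node 42240 (.node 40852 (.node 40790 (.leaf [2, 4, 6])
 (.leaf [6, 4, 2]))
 (.node 42043 (.leaf [2, 4, 2])
 (.node 42125 (.leaf [6, 8, 2])
 (.leaf [2, 4, 2]))))
 (.node 43297 (.node 43082 (.leaf [4, 6, 2])
 (.leaf [10, 8, 2]))
 (.node 43781 (.leaf [8, 6, 4])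
 (.node 44174 (.leaf [8, 6, 4])
 (.leaf [4, 6, 2]))))))
 (.node 49813 (.node 47630 (.node 44868 (.node 44599 (.leaf [8, 10, 2])
 (.leaf [2, 4, 2]))
 (.node 45594 (.leaf [8, 4, 2])
 (.node 45751 (.leaf [8, 4, 2])
 (.leaf [4, 6, 8, 2]))))
 (.node 48703 (.node 47721 (.leaf [4, 6, 2])
 (.leaf [6, 4, 2]))
 (.node 49306 (.leaf [2, 4, 2])
 (.node 49331 (.leaf [4, 6, 4, 2])
 (.leaf [8, 10, 12])))))
 (.node 50644 (.node 50060 (.node 49914 (.leaf [8, 6, 2])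
 (.leaf [10, 12, 6]))
 (.node 50365 (.leaf [6, 2, 4])
 (.node 50465 (.leaf [10, 12, 8, 10])
 (.leaf [8, 4, 6]))))
 (.node 51209 (.node 51032 (.leaf [6, 8, 6, 2])
 (.leaf [6, 8, 10]))
 (.node 51312 (.leaf [10, 8, 2])
 (.node 51328 (.leaf [10, 8, 2])
 (.leaf [6, 2, 4]))))))))
 (.node 59612 (.node 55099 (.node 54226 (.node 53562 (.node 51621 (.node 51575 (.leaf [6, 4, 2])
 (.leaf [10, 8, 4]))
 (.node 52090 (.leaf [2, 4, 2])
 (.node 52639 (.leaf [10, 8, 2])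
 (.leaf [10, 4, 2]))))
 (.node 53656 (.node 53643 (.leaf [2, 4, 2])
 (.leaf [4, 6, 2]))
 (.node 53882 (.leaf [10, 8, 2])
 (.node 53956 (.leaf [10, 2, 4])
 (.leaf [6, 4, 2])))))
 (.node 54838 (.node 54513 (.node 54233 (.leaf [10, 4, 2])
 (.leaf [10, 12, 2]))
 (.node 54576 (.leaf [8, 4, 2])
 (.node 54689 (.leaf [10, 8, 2])
 (.leaf [10, 8, 2]))))
 (.node 54895 (.node 54848 (.leaf [10, 6, 8])
 (.leaf [10, 6, 4]))
 (.node 55025 (.leaf [6, 8, 6])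
 (.node 55048 (.leaf [10, 8, 2])
 (.leaf [10, 8, 2]))))))
 (.node 57679 (.node 56649 (.node 55393 (.node 55121 (.leaf [8, 2, 4])
 (.leaf [10, 8, 2]))
 (.node 55869 (.leaf [12, 4, 2])
 (.node 56244 (.leaf [10, 6, 4])
 (.leaf [6, 4, 2]))))
 (.node 57378 (.node 56898 (.leaf [4, 6, 2])
 (.leaf [8, 4, 2]))
 (.node 57542 (.leaf [10, 2, 4])
 (.node 57638 (.leaf [8, 10, 2])
 (.leaf [4, 6, 2])))))
 (.node 58430 (.node 57889 (.node 57860 (.leaf [10, 6, 8])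
 (.leaf [10, 6, 2]))
 (.node 57921 (.leaf [8, 4, 2])
 (.node 58219 (.leaf [6, 4, 2])
 (.leaf [6, 4, 2]))))
 (.node 59317 (.node 58554 (.leaf [6, 8, 10])
 (.leaf [4, 6, 8]))
 (.node 59426 (.leaf [6, 2, 4])
 (.node 59434 (.leaf [6, 4, 2])
 (.leaf [8, 2, 4])))))))
 (.node 67545 (.node 61642 (.node 60342 (.node 59826 (.node 59730 (.leaf [10, 8, 2])
 (.leaf [10, 8, 4, 6]))
 (.node 60159 (.leaf [6, 2, 4])
 (.node 60194 (.leaf [8, 10, 4])
 (.leaf [8, 2, 4]))))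
 (.node 60717 (.node 60429 (.leaf [8, 4, 2])
 (.leaf [6, 4, 2]))
 (.node 61181 (.leaf [12, 8, 6])
 (.node 61303 (.leaf [4, 6, 2])
 (.leaf [6, 4, 2])))))
 (.node 64864 (.node 61918 (.node 61914 (.leaf [10, 4, 2])
 (.leaf [12, 4, 2]))
 (.node 61966 (.leaf [2, 4, 6])
 (.node 64357 (.leaf [10, 2, 4])
 (.leaf [6, 4, 2]))))
 (.node 64977 (.node 64962 (.leaf [10, 6, 2])
 (.leaf [10, 12, 4]))
 (.node 65702 (.leaf [4, 6, 8])
 (.node 66096 (.leaf [8, 6, 4])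
 (.leaf [10, 2, 4]))))))
 (.node 73918 (.node 71316 (.node 69951 (.node 67579 (.leaf [4, 6, 2])
 (.leaf [4, 6, 4]))
 (.node 70877 (.leaf [12, 2, 4])
 (.node 71232 (.leaf [10, 4, 2])
 (.leaf [10, 6, 4]))))
 (.node 72695 (.node 71735 (.leaf [10, 12, 4])
 (.leaf [2, 4, 2]))
 (.node 72699 (.leaf [2, 4, 2])
 (.node 72775 (.leaf [8, 6, 2])
 (.leaf [6, 4, 2])))))
 (.node 82700 (.node 77404 (.node 75119 (.leaf [8, 10, 4])
 (.leaf [10, 12, 2]))
 (.node 77489 (.leaf [2, 4, 2])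
 (.node 78024 (.leaf [10, 12, 2])
 (.leaf [10, 8, 6]))))
 (.node 87348 (.node 83351 (.leaf [12, 4, 2])
 (.node 85784 (.leaf [6, 8, 4])
 (.leaf [4, 6, 2])))
 (.node 87361 (.leaf [10, 2, 4])
 (.node 90493 (.leaf [6, 2, 4])
 (.leaf [2, 4, 2])))))))))))
noncomputable def descC (u : ℕ) : Bool :=
  bor (anyL (fun w => Nat.ble (Nat.succ (apw act w u)) u) W12) (bor (anyL (Nat.beq u) [0, 1, 6, 16, 32])
    (band (hl (exW.get u)) (force (apw act (exW.get u) u) fun v => bor (Nat.ble (Nat.succ v) u) (Nat.beq v 16))))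
theorem desc_0 : allFrom (descC) 0 31000 = true := by decide +kernel
theorem desc_1 : allFrom (descC) 31000 31000 = true := by decide +kernel
theorem desc_2 : allFrom (descC) 62000 31000 = true := by decide +kernel
theorem desc_3 : allFrom (descC) 93000 29760 = true := by decide +kernel
theorem desc : ∀ i, i < 122760 → (descC) i = true := (allLt_iff _ 122760).1 (allLt_of_allFrom _ 122760 (allFrom_append _ 0 93000 29760 (allFrom_append _ 0 62000 31000 (allFrom_append _ 0 31000 31000 desc_0 desc_1) desc_2) desc_3))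

theorem cover (u : ℕ) : u < 122760 → ∃ r ∈ [0, 1, 6, 16, 32], pt u ∈ orbit H (pt r) := by
  induction u using Nat.strong_induction_on with
  | _ u ih =>
    intro hu
    have st : ∀ {w : List ℕ} {r : ℕ}, hl w = true → pt (apw act w u) ∈ orbit H (pt r) → pt u ∈ orbit H (pt r) :=
      fun c h => by
        rw [← (TT.apw (hl_spec c).2 u hu).2] at h
        exact (orbit_eq_iff.2 h ▸ mem_orbit_symm.1 (mem_orbit (pt u) (⟨_, (hl_spec c).1⟩ : H)) :)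
    have := desc u hu
    simp only [descC, bor_eq_true, band_eq_true, anyL_iff, force_eq, Nat.ble_eq, Nat.beq_eq] at this
    rcases this with ⟨w, hw, h⟩ | ⟨r, hr, rfl⟩ | ⟨c, h | h⟩
    · obtain ⟨r, hr, e⟩ := ih _ h (by omega)
      exact ⟨r, hr, st ((allL_iff hl W12).1 (by decide +kernel) w hw) e⟩
    · exact ⟨u, hr, mem_orbit_self _⟩
    · obtain ⟨r, hr, e⟩ := ih _ h (by omega)
      exact ⟨r, hr, st c e⟩
    · exact ⟨16, by decide, st c (h ▸ mem_orbit_self _)⟩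

theorem orb_le {p b N : ℕ} {E : List (List ℕ)} {ws : List ℕ} (c : band (band (allL hl E) (fixW act 7 122760 E p))
    (walkT act 7 122760 E b ws N) = true) : (orbit H (pt p)).ncard * N ≤ 3753792 := by
  simp only [band_eq_true] at c
  rw [← card_H, card_eq_orbit_mul H (pt p)]
  exact Nat.mul_le_mul_left _ (TT.le_card (le_inf (wgen_le fun w hw =>
    (hl_spec ((allL_iff _ _).1 c.1.1 w hw)).1) (TT.wgen_le c.1.2)) c.2)

theorem rk_H : Rk H := by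
  have h0 : (orbit H (pt 0)).ncard ≤ 1 := (Set.ncard_le_one (Set.toFinite _)).2 (by
    rintro _ ⟨a, rfl⟩ _ ⟨b, rfl⟩
    exact (show (a : ON) ∈ stabilizer ON (pt 0) from stab_zero.ge a.2).trans
      (show (b : ON) ∈ stabilizer ON (pt 0) from stab_zero.ge b.2).symm)
  have h1 := orb_le (p := 1) (b := 31) (N := 64) (E := [[2],
  [8, 6, 8, 6],
  [10, 8, 6, 8, 6, 4, 10, 8, 6, 4, 8, 6, 12, 4, 10, 12, 8, 6, 8, 10, 4, 6, 8, 6, 8, 10]])
    (ws := [0x84000005aaaaaaaaa1edf7df7df7df]) (by decide +kernel)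
  have h6 := orb_le (p := 6) (b := 59) (N := 72) (E := [[12],
  [8],
  [10],
  [2, 4]])
    (ws := [0x88400040000000840880853bb408813bb53bb619935dd37ff]) (by decide +kernel)
  have h16 := orb_le (p := 16) (b := 83) (N := 672) (E := [[2],
  [4],
  [6],
  [8],
  [12]])
    (ws := [0xaa4b512f675ecead15bd11eeb3dd65aa4b512f675ecebd95bd11eeb3dd67bacb512f675ecebd9dff, 0x1a082893dd66b38311af656f446001793af675ec8ca89c18a4b512f675ecead15bd11eeb3dd65, 0xb7a22404c0c525a8000560ebd9d7b232027007549ace0d46bd995a096235eca012f675ecebd9580, 0x159236827062b037820512290002023254e4ebd9010040075ecead19560a477592833dd67b28d6, 0x2000000000400000008000000000000000201230400d180000000800400504001820e6446024, 0x800000000000000000000000000000000000a00002460000000002080000003402080000, 0x40000000000000000000000000804000000000000000000000000000000000000000000000030005, 0x10000000000000000000000000000000000000000000000000000000000000802,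 0x20000000000000000000000000400000000000000000000000000000008000000000, 0x800000000000000000000010000000000000000000]) (by decide +kernel)
  have h32 := orb_le (p := 32) (b := 5) (N := 588) (E := [[2, 4],
  [10, 8, 6, 4, 8, 10, 12, 10, 8, 6, 8, 10],
  [6, 4, 8, 6, 8, 10, 8, 6, 12, 10, 8, 10, 12, 4, 6, 8, 10, 6, 8, 4, 6]])
    (ws := [0x55c55c55c55c55c542e5f2f97cba5d75d75d75d75d75d75f, 0x65f2f97cba2b8ab8ab8ab8ab8a85cbe5f2f965f2f97c574c, 0x75c715719e6baebaabc457cd71d7595832f855c542e5f2f9, 0x75458955c7157cc55f3472eba172cba1571571571574d189, 0x220054b08022a0ce2080842588e2ae8e6baa8e5e14715d, 0x8422884297800420a04103098212c0502ac555d3151c0002, 0x441008800002200000002058004081642e405144100000c2, 0x14000000011080110000]) (by decide +kernel)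

  have h : (Set.univ : Set Ω).ncard ≤ (orbit H (pt 0) ∪ (orbit H (pt 1) ∪ (orbit H (pt 6) ∪
      (orbit H (pt 16) ∪ orbit H (pt 32))))).ncard := Set.ncard_le_ncard fun y _ => by
    obtain ⟨u, hu, rfl⟩ := surj y
    obtain ⟨r, hr, e⟩ := cover u hu
    simp only [List.mem_cons, List.not_mem_nil, or_false] at hr
    rcases hr with rfl | rfl | rfl | rfl | rfl <;> simp [e]
  rw [Set.ncard_univ, card_Ω] at h
  have a1 := Set.ncard_union_le (orbit H (pt 16)) (orbit H (pt 32))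
  have a2 := Set.ncard_union_le (orbit H (pt 6)) (orbit H (pt 16) ∪ orbit H (pt 32))
  have a3 := Set.ncard_union_le (orbit H (pt 1)) (orbit H (pt 6) ∪ (orbit H (pt 16) ∪ orbit H (pt 32)))
  have a4 := Set.ncard_union_le (orbit H (pt 0))
    (orbit H (pt 1) ∪ (orbit H (pt 6) ∪ (orbit H (pt 16) ∪ orbit H (pt 32))))
  exact ⟨index_H, pt 32, pt 16, pt 1, pt 6, by omega, by omega, by omega, by omega⟩

/-! ### subgroups L3(7):2 -/

theorem card_norm {X : Subgroup ON} (hα : α ∈ X) {m k : ℕ} (hX : Nat.card X = 19 * m) (hm : ¬ 19 ∣ m)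
    (hk : ∀ d, d ≤ 18 → d ∣ 18 → m / d % 19 = 1 → d = k) :
    Nat.card (X ⊓ normalizer (zpowers α : Set ON) : Subgroup ON) = 19 * k := by
  haveI : Fact (Nat.Prime 19) := ⟨by norm_num⟩
  have cA : Nat.card (zpowers α) = 19 := (Nat.card_zpowers α).trans orderOf19
  have hle : zpowers α ≤ X := zpowers_le.2 hα
  have c1 : Nat.card ((zpowers α).subgroupOf X) = 19 ^ 1 :=
    (Nat.card_congr (subgroupOfEquivOfLe hle).toEquiv).trans cA
  have c2 := card_mul_index ((zpowers α).subgroupOf X)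
  rw [c1, hX] at c2
  let P := (IsPGroup.of_card c1).toSylow (Nat.eq_of_mul_eq_mul_left (by decide) c2 ▸ hm)
  have h1 := card_sylow_modEq_one 19 X
  rw [P.card_eq_index_normalizer, show (P : Set X) = (zpowers α).subgroupOf X from rfl,
    ← subgroupOf_normalizer_eq hle] at h1
  have h2 := card_mul_index ((normalizer (zpowers α : Set ON)).subgroupOf X)
  rw [← card_map_of_injective X.subtype_injective, subgroupOf_map_subtype, inf_comm, hX] at h2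
  have h3 : Nat.card (normalizer (zpowers α : Set ON)) ∣ 19 * 18 := by
    rw [← card_mul_index (zpowers α).normalizerMonoidHom.ker, index_ker]
    refine Nat.mul_dvd_mul ?_ ((card_subgroup_dvd_card _).trans (by rw [IsCyclic.card_mulAut, cA]; decide))
    rw [normalizerMonoidHom_ker, ← card_map_of_injective (subtype_injective _), subgroupOf_map_subtype, ← cA]
    refine card_dvd_of_le fun g hg => ?_
    obtain ⟨i, rfl⟩ := centA g (hg.1 α (mem_zpowers α)).symm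
    exact pow_mem (mem_zpowers α) i
  obtain ⟨d, hd⟩ : 19 ∣ Nat.card (X ⊓ normalizer (zpowers α : Set ON) : Subgroup ON) :=
    cA ▸ card_dvd_of_le (le_inf hle le_normalizer)
  have h4 := (card_dvd_of_le (inf_le_right (a := X))).trans h3
  rw [hd] at h2 h4 ⊢
  replace h4 := Nat.dvd_of_mul_dvd_mul_left (by decide) h4
  rw [mul_assoc] at h2
  rw [hk d (Nat.le_of_dvd (by decide) h4) h4 (by
    rw [← Nat.eq_of_mul_eq_mul_left (by decide) h2, Nat.mul_div_cancel_left _ (Nat.pos_of_dvd_of_pos h4 (by decide))]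
    exact h1)]

noncomputable def w9 (i : ℕ) : List ℕ := powW [2, 4] (Nat.mod i 3) ++ powW [10, 12] (Nat.div i 3)
noncomputable def mu9 (i j : ℕ) : ℕ :=
  Nat.add (Nat.mod (Nat.add i j) 3) (Nat.mul 3 (Nat.mod (Nat.add (Nat.div i 3) (Nat.div j 3)) 3))

theorem WO : WM x 7 122760 pt act [0, 16, 83] := ⟨TT, base_lt, base⟩

theorem tg9 : TG (fun i => evW x (w9 i)) 9 mu9 := by
  have : allLt (fun i => allLt (fun j => band (band (Nat.ble (Nat.succ (mu9 i j)) 9)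
    (eqB act 7 [0, 16, 83] (w9 (mu9 i j)) (w9 i ++ w9 j)))
    (bor (Nat.beq i j) (neB act 7 [0, 16, 83] (w9 i) (w9 j)))) 9) 9 = true := by decide +kernel
  simp only [allLt_iff, band_eq_true, bor_eq_true, Nat.ble_eq, Nat.beq_eq] at this
  exact ⟨by decide, rfl, fun hi hj => (this _ hi _ hj).1.1,
    fun hi hj => (eq_of (this _ hi _ hj).1.2).trans (evW_append ..),
    fun hi hj e => (this _ hi _ hj).2.resolve_right fun c => WO.ne c e⟩

theorem three (r : L37) (h3 : r ^ 3 = 1) (h1 : r ≠ 1) : ∃ w : L37, w * w = 1 ∧ w ≠ 1 ∧ w * r = r * w := by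
  haveI : Fact (Nat.Prime 3) := ⟨by norm_num⟩
  have sq : ∀ w, hl w = true → evW x (w ++ w) ∈ L37.map H.subtype := fun w c =>
    ⟨_, mul_self_mem_of_index_two index_L37 ⟨_, (hl_spec c).1⟩, (evW_append ..).symm⟩
  have ck : allLt (fun i => band (band (hl (w9 i ++ w9 i))
      (eqB act 7 [0, 16, 83] (w9 i) ((w9 i ++ w9 i) ++ (w9 i ++ w9 i)))) (bor (Nat.beq i 0)
      (anyL (fun z => band (band (hl z) (eqB act 7 [0, 16, 83] ((z ++ z) ++ (z ++ z)) []))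
        (band (neB act 7 [0, 16, 83] (z ++ z) []) (eqB act 7 [0, 16, 83] ((z ++ z) ++ w9 i) (w9 i ++ (z ++ z)))))
        [[6, 4, 2],
  [12, 10, 8],
  [6, 8, 10, 4, 6, 8, 6, 8, 10, 12, 4, 6, 8, 10, 6, 8, 4, 6, 8, 4, 6, 2],
  [6, 8, 4, 6, 8, 10, 12, 4, 6, 8, 10, 6, 8, 4, 6, 8, 10, 6, 8, 4, 6, 2]]))) 9 = true := by decide +kernel
  simp only [allLt_iff, band_eq_true, bor_eq_true, anyL_iff, Nat.beq_eq] at ck
  obtain ⟨_, ⟨c, hc, rfl⟩, e⟩ := sylow_conj (p := 3) (k := 2) (m := 208544) (C := L37.map H.subtype)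
    (S := tg9.sub) (U := zpowers ((r : H) : ON))
    (by rintro _ ⟨i, hi, rfl⟩; exact (eq_of (ck i hi).1.2).symm.subst (motive := (· ∈ _)) (sq _ (ck i hi).1.1))
    (zpowers_le.2 ⟨r, r.2, rfl⟩) tg9.card ((card_map_of_injective H.subtype_injective).trans L37_spec.1)
    (by decide) (IsPGroup.of_card (n := 1) (by
      rw [Nat.card_zpowers, orderOf_coe, orderOf_coe, orderOf_eq_prime h3 h1]; rfl))
  obtain ⟨i, hi, e⟩ := e _ (mem_zpowers _)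
  replace e : evW x (w9 i) = c * (r : H) * (c : ON)⁻¹ := e
  obtain ⟨z, -, ⟨z1, z2⟩, z3, z4⟩ := (ck i hi).2.resolve_left fun h => h1 (Subtype.ext (Subtype.ext (by
    rw [h] at e; exact conj_eq_one_iff.1 e.symm)))
  obtain ⟨w, hw, ew⟩ := sq z z1
  replace ew : (w : ON) = evW x (z ++ z) := ew
  replace z2 := eq_of z2
  replace z3 := WO.ne z3
  replace z4 := eq_of z4
  rw [evW_append, ← ew] at z2
  rw [evW_append, evW_append x (w9 i), ← ew, e] at z4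
  rw [← ew] at z3
  refine ⟨(⟨c, hc⟩ : L37)⁻¹ * ⟨w, hw⟩ * ⟨c, hc⟩, Subtype.ext (Subtype.ext ?_),
    fun h => z3 ?_, Subtype.ext (Subtype.ext ?_)⟩
  · show (c : ON)⁻¹ * w * c * ((c : ON)⁻¹ * w * c) = 1
    calc _ = (c : ON)⁻¹ * ((w : ON) * w) * c := by group
      _ = _ := by rw [z2]; simp
  · have : (c : ON)⁻¹ * w * c = 1 := congrArg (fun u : L37 => ((u : H) : ON)) h
    rw [show (w : ON) = c * ((c : ON)⁻¹ * w * c) * (c : ON)⁻¹ by group, this]; simp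
  · show (c : ON)⁻¹ * w * c * (r : H) = (r : H) * ((c : ON)⁻¹ * w * c)
    calc _ = (c : ON)⁻¹ * (w * (c * (r : H) * (c : ON)⁻¹)) * c := by group
      _ = _ := by rw [z4]; group

theorem exists_tau' : ∃ τ : ON ≃* ON, ∀ v w, band (wf1 7 v) (eqB act 7 [0, 16, 83] (subW Im v) w) = true →
    τ (evW x v) = evW x w := by
  obtain ⟨φ, hφ⟩ := pres.hom ON (fun i => evW x (nthW Im i))
    (Rels.subW (rels_of (Rs := R.map (subW Im)) (by decide +kernel)))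
  have key : ∀ v w, band (wf1 7 v) (eqB act 7 [0, 16, 83] (subW Im v) w) = true → φ (evW x v) = evW x w :=
    fun v w h => by
      rw [band_eq_true] at h
      rw [map_evW, evW_congr hφ (wf1_spec h.1), ← evW_subW, eq_of h.2]
  have := simple
  have hi : Function.Injective φ := (MonoidHom.ker_eq_bot_iff φ).1
    ((MonoidHom.normal_ker φ).eq_bot_or_eq_top.resolve_right fun h =>
      WO.ne (v := up wa) (w := []) (by decide +kernel)
        ((key (up wa) _ (by decide +kernel)).symm.trans (h.ge (mem_top _))))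
  exact ⟨MulEquiv.ofBijective φ (Finite.injective_iff_bijective.1 hi), key⟩

def v1 : List ℕ := [6, 4, 8, 6, 4, 10, 8, 6, 8, 10, 4, 6, 8, 4, 6, 8, 10, 4, 6, 8, 6, 8, 4, 6, 8, 10, 12, 8, 10]
def v2 : List ℕ := [6, 4, 0, 4, 6, 8, 10, 6, 8, 4, 6, 0, 8, 10, 0, 8, 10, 2, 4, 6, 8, 6, 8, 10, 4, 6, 8, 6, 8, 10, 12, 8, 4, 6, 8, 10, 12, 6, 8, 2, 4]

theorem H_le : H ≤ wgen x [up wa, up wb, v1] :=
  wgen_le fun w hw => by
    have : allL (fun w => anyL (fun u => eqB act 7 [0, 16, 83] w (subW [up wa, up wb, v1] u))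
      [[1, 1, 4, 0, 0, 0, 4, 0, 3, 0, 4, 0, 4, 3, 0, 4],
  [1, 4, 0, 0, 0, 4, 0, 3, 0, 4, 0, 4, 3, 0, 4, 1],
  [1, 1, 3, 4, 0, 4, 0, 2, 0, 4, 0, 4, 0, 4, 0, 0],
  [0, 4, 1, 4, 3, 0, 4, 1, 3, 1, 4, 3, 0, 4, 2],
  [1, 1, 3, 4, 1, 4, 1, 2, 1, 4, 1, 4, 1, 4, 0, 0],
  [1, 3, 4, 1, 4, 1, 2, 1, 4, 1, 4, 1, 4, 0]]) E7 = true := by decide +kernel
    obtain ⟨u, -, e⟩ := (anyL_iff _ _).1 ((allL_iff _ _).1 this w hw)
    exact eq_of e ▸ subW_mem_wgen x _ u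

theorem rk_of_mem {X K : Subgroup ON} (hle : K ≤ X) (hi : (K.subgroupOf X).index = 2) (e : K ≃* L37)
    (hα : α ∈ X) : Rk X := by
  have cK : Nat.card K = 1876896 := (Nat.card_congr e.toEquiv).trans L37_spec.1
  have cX : Nat.card X = 3753792 := by
    rw [← card_mul_index (K.subgroupOf X), hi, Nat.card_congr (subgroupOfEquivOfLe hle).toEquiv, cK]
  have mm : ∀ {a b : ON}, a ∈ X → b ∈ X → (a * b ∈ K ↔ (a ∈ K ↔ b ∈ K)) := fun ha hb =>
    mul_mem_iff_of_index_two hi (a := ⟨_, ha⟩) (b := ⟨_, hb⟩)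
  have hαK : α ∈ K := by
    have := (mm (pow_mem hα 10) (pow_mem hα 10)).2 Iff.rfl
    rwa [← pow_add, show α ^ (10 + 10) = α ^ 19 * α from pow_succ α 19,
      show α ^ 19 = 1 from orderOf19 ▸ pow_orderOf_eq_one α, one_mul] at this
  have n1 := card_norm (mem_top α) (m := 24253447680) (k := 6) (card_top.trans card) (by decide) (by decide)
  have n2 := card_norm hα (m := 197568) (k := 6) cX (by decide) (by decide)
  have n3 := card_norm hαK (m := 98784) (k := 3) cK (by decide) (by decide)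
  have bn : β ∈ normalizer (zpowers α : Set ON) := mem_normalizer_fintype (by
    rintro _ ⟨k, rfl⟩
    have := eq_of (v := up wb ++ up wa) (w := powW (up wa) 8 ++ up wb) (by decide +kernel)
    rw [evW_append, evW_append, evW_powW, ← mul_inv_eq_iff_eq_mul] at this
    show β * α ^ k * β⁻¹ ∈ zpowers α
    rw [← conj_zpow, show β * α * β⁻¹ = α ^ 8 from this]
    exact zpow_mem (pow_mem (mem_zpowers α) 8) k)
  have hβ : β ∈ X := ((eq_of_le_of_card_ge (inf_le_inf_right _ le_top) (n1.trans n2.symm).le).ge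
    ⟨trivial, bn⟩).1
  have b6 : β ^ 3 * β ^ 3 = 1 := by
    rw [← pow_add, β, ← evW_powW]; exact eq_of (w := []) (by decide +kernel)
  have b3 : β ^ 3 ≠ 1 := by rw [β, ← evW_powW]; exact WO.ne (w := []) (by decide +kernel)
  have jK : β ^ 3 ∉ K := fun h => by
    have := (K ⊓ normalizer (zpowers α : Set ON)).orderOf_dvd_natCard ⟨h, pow_mem bn 3⟩
    rw [n3, H9.orderOf_eq_two_of_mul_self b3 b6] at this
    omega
  have rK : β * β ∈ K := (mm hβ hβ).2 Iff.rfl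
  obtain ⟨w, w2, w1, wr⟩ := three (e ⟨_, rK⟩)
    (by rw [← map_pow, map_eq_one_iff e e.injective]; exact Subtype.ext (by
      show (β * β) ^ 3 = 1; rw [← b6, ← pow_add, ← pow_two, ← pow_mul]))
    (fun h => WO.ne (v := up wb ++ up wb) (w := []) (by decide +kernel)
      ((evW_append ..).trans (congrArg Subtype.val ((map_eq_one_iff e e.injective).1 h))))
  obtain ⟨w, rfl⟩ := e.surjective w
  rw [← map_mul, map_eq_one_iff e e.injective] at w2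
  rw [Ne, map_eq_one_iff e e.injective] at w1
  rw [← map_mul, ← map_mul, e.injective.eq_iff] at wr
  obtain ⟨v, vK, v2', v1', vb⟩ : ∃ v ∈ K, v * v = 1 ∧ v ≠ 1 ∧ v * β = β * v := by
    let D := X ⊓ centralizer {β * β}
    have jD : β ^ 3 ∈ D := ⟨pow_mem hβ 3, mem_centralizer_singleton_iff.2 (by group)⟩
    have wD : (w : ON) ∈ D := ⟨hle w.2, mem_centralizer_singleton_iff.2 (congrArg Subtype.val wr)⟩
    have fin : ∀ v ∈ D, v * β ^ 3 = β ^ 3 * v → v * β = β * v := fun v hv h => by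
      have := mem_centralizer_singleton_iff.1 hv.2
      calc v * β = v * β ^ 3 * (β * β)⁻¹ := by group
        _ = β * (β * β * v) * (β * β)⁻¹ := by rw [h, pow_three]; group
        _ = _ := by rw [← this]; group
    obtain ⟨z, oz, z1, z2⟩ := H9.exists_involution_commute_of_not_isConj (G := D) (x := ⟨_, wD⟩)
      (y := ⟨_, jD⟩) (Subtype.ext (congrArg Subtype.val w2 :)) (Subtype.ext b6) fun h => by
        obtain ⟨c, hc⟩ := isConj_iff.1 h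
        refine jK ((show (c : ON) * w * (c : ON)⁻¹ = β ^ 3 from congrArg Subtype.val hc) ▸ ?_)
        rw [mm (mul_mem c.2.1 wD.1) (inv_mem c.2.1), mm c.2.1 wD.1, inv_mem_iff]
        have := w.2
        tauto
    replace z1 : (z : ON) * w = w * z := congrArg Subtype.val z1.eq
    replace z2 : (z : ON) * β ^ 3 = β ^ 3 * z := congrArg Subtype.val z2.eq
    have zz : (z : ON) * z = 1 := congrArg Subtype.val (H9.mul_self_of_orderOf_two oz)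
    by_cases hz : (z : ON) ∈ K
    · exact ⟨z, hz, zz, fun h => H9.ne_one_of_orderOf_two oz (Subtype.ext h), fin _ z.2 z2⟩
    by_cases hj : (z : ON) * β ^ 3 = 1
    · rw [show (z : ON) = β ^ 3 from mul_right_cancel (hj.trans b6.symm)] at z1
      exact ⟨w, w.2, congrArg Subtype.val w2, fun h => w1 (Subtype.ext h), fin _ wD z1.symm⟩
    · refine ⟨z * β ^ 3, (mm z.2.1 jD.1).2 ⟨fun h => absurd h hz, fun h => absurd h jK⟩, ?_, hj,
        fin _ (mul_mem z.2 jD) (by rw [z2, mul_assoc, z2])⟩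
      rw [mul_assoc, ← mul_assoc (β ^ 3), ← z2, mul_assoc, b6, mul_one, zz]
  obtain ⟨c, hc, u, hu, ev⟩ := centB vb
  have ck : allL (fun c => allL (fun u => mapK (fun l => l) (c.2 ++ up u) fun y =>
      bor (neB act 7 [0, 16, 83] (y ++ y) []) (anyL (fun z => eqB act 7 [0, 16, 83] y z)
        [[], powW (up wb) 3, v1, v1 ++ powW (up wb) 3, v2, v2 ++ powW (up wb) 3])) Ws) Cs = true := by
    decide +kernel
  have := (allL_iff _ _).1 ((allL_iff _ _).1 ck c hc) u hu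
  rw [mapK_eq, List.map_id', bor_eq_true, anyL_iff] at this
  obtain ⟨z, hz, ez⟩ := this.resolve_left fun h => WO.ne h (by rw [evW_append, ← ev, v2']; rfl)
  replace ez := ev.trans (eq_of ez)
  have j : evW x (powW (up wb) 3) = β ^ 3 := evW_powW ..
  have hv : evW x v1 ∈ X ∨ evW x v2 ∈ X := by
    simp only [List.mem_cons, List.not_mem_nil, or_false] at hz
    have vX := hle vK
    rcases hz with rfl | rfl | rfl | rfl | rfl | rfl
    · exact absurd ez v1'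
    · exact absurd (j ▸ ez ▸ vK) jK
    · exact .inl (ez ▸ vX)
    · rw [ez, evW_append, j] at vX; exact .inl ((mul_mem_cancel_right (pow_mem hβ 3)).1 vX)
    · exact .inr (ez ▸ vX)
    · rw [ez, evW_append, j] at vX; exact .inr ((mul_mem_cancel_right (pow_mem hβ 3)).1 vX)
  rcases hv with hv | hv
  · rw [← eq_of_le_of_card_ge (H_le.trans (wgen_le (by simpa using ⟨hα, hβ, hv⟩)))
      (cX.trans card_H.symm).le]
    exact rk_H
  · obtain ⟨τ, hτ⟩ := exists_tau'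
    rw [← eq_of_le_of_card_ge (H := H.map τ.toMonoidHom) (map_le_iff_le_comap.2 (H_le.trans (wgen_le (by
      simp only [List.mem_cons, List.not_mem_nil, or_false, forall_eq_or_imp, forall_eq, mem_comap]
      exact ⟨(hτ (up wa) (up wa) (by decide +kernel)).symm.subst (motive := (· ∈ X)) hα,
        (hτ (up wb) (up wb) (by decide +kernel)).symm.subst (motive := (· ∈ X)) hβ,
        (hτ v1 v2 (by decide +kernel)).symm.subst (motive := (· ∈ X)) hv⟩))))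
      (cX.trans (card_H.symm.trans (card_map_of_injective τ.injective).symm)).le]
    exact rk_H.map τ

theorem rk_of_equiv {G : Type*} [Group G] (φ : G ≃* ON) (X : Subgroup G) (N : Subgroup X) (hN : N.index = 2)
    (e : N ≃* L37) : Rk X := by
  haveI : Fact (Nat.Prime 19) := ⟨by norm_num⟩
  haveI : Finite G := Finite.of_equiv _ φ.symm.toEquiv
  obtain ⟨u, hu⟩ := exists_prime_orderOf_dvd_card' (G := N) 19
    (by rw [Nat.card_congr e.toEquiv, L37_spec.1]; decide)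
  have ou : orderOf (φ ((u : X) : G)) = 19 := by rw [φ.orderOf_eq, orderOf_coe, orderOf_coe, hu]
  have cA : Nat.card (zpowers α) = 19 ^ 1 := (Nat.card_zpowers α).trans orderOf19
  obtain ⟨c, -, hc⟩ := sylow_conj (p := 19) (k := 1) (m := 24253447680) (C := ⊤)
    (S := zpowers (φ ((u : X) : G))) (U := zpowers α) le_top le_top ((Nat.card_zpowers _).trans ou)
    (card_top.trans card) (by decide) (IsPGroup.of_card cA)
  let ψ : G ≃* ON := φ.trans (MulAut.conj c⁻¹)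
  have h := rk_of_mem (X := X.map ψ.toMonoidHom) (K := (N.map X.subtype).map ψ.toMonoidHom)
    (map_mono (map_subtype_le N)) (by
      rw [← relIndex, relIndex_map_map_of_injective _ _ ψ.injective, relIndex, subgroupOf,
        comap_map_eq_self_of_injective X.subtype_injective, hN])
    (((N.equivMapOfInjective _ X.subtype_injective).trans (ψ.subgroupMap _)).symm.trans e) (by
      obtain ⟨k, hk⟩ := hc α (mem_zpowers α)
      refine ⟨_, zpow_mem (u : X).2 k, ?_⟩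
      show c⁻¹ * φ _ * c⁻¹⁻¹ = α
      rw [map_zpow, show φ ((u : X) : G) ^ k = _ from hk]; group)
  have := h.map ψ.symm
  rwa [map_map, show ψ.symm.toMonoidHom.comp ψ.toMonoidHom = MonoidHom.id G from
    MonoidHom.ext ψ.symm_apply_apply, map_id] at this

theorem eqns_Rank : True := by
  have := @hl.eq_1
  have := @W12.eq_1
  have := @exW.eq_1
  have := @descC.eq_1
  have := @w9.eq_1
  have := @mu9.eq_1
  have := @v1.eq_1
  have := @v2.eq_1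
  have := @Rk.eq_1.{0}
  trivial

end H87.ONK
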